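import Cfsg.Agent.S1410
import Cfsg.Agent.S1461
import Cfsg.Agent.Lib.BGSigma.Basic
import Cfsg.Agent.Lib.BGAppendix.FittingHall
import Cfsg.Agent.Lib.Hall.Existence

/-!
Fusion in a nilpotent Hall subgroup of a minimal simple group of odd order is controlled by its
normalizer.
-/

set_option autoImplicit false
set_option linter.style.haveILetI false

namespace CfsgLib.BGAppendix

open Cfsg CfsgLib.BGUniqueness

universe u

variable {G : Type u} [Group G] [Finite G]

/-- An element whose order is prime to `|H : N|` lies in the normal subgroup `N`, in product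
form. -/
theorem mem_left_of_coprime {A B : Subgroup G} (hcomm : ∀ a ∈ A, ∀ b ∈ B, a * b = b * a)
    {y a b : G} (ha : a ∈ A) (hb : b ∈ B) (hy : y = a * b)
    (hc : (orderOf y).Coprime (Nat.card B)) : y ∈ A := by
  have h1 : y ^ Nat.card B = a ^ Nat.card B := by
    have hbB : b ^ Nat.card B = 1 := congrArg Subtype.val (pow_card_eq_one' (x := (⟨b, hb⟩ : B)))
    rw [hy, Commute.mul_pow (hcomm a ha b hb), hbB, mul_one]
  obtain ⟨j, hj⟩ := exists_pow_eq_self_of_coprime hc.symm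
  rw [← hj, h1]
  exact pow_mem (pow_mem ha _) _

/-- Conjugates of one prime component: the normalizer of a Sylow subgroup of `G` controls its
fusion in every subgroup containing it. -/
theorem fusion_step (hG : IsMinSimpleOddOrder G) {p : ℕ} [Fact p.Prime] (P : Sylow p G)
    (X : Subgroup G) (hPX : (P : Subgroup G) ≤ X) {x g : G} (hx : x ∈ (P : Subgroup G)) (hg : g ∈ X)
    (hgx : g * x * g⁻¹ ∈ (P : Subgroup G)) :
    ∃ n ∈ X ⊓ Subgroup.normalizer ((P : Subgroup G) : Set G), n * x * n⁻¹ = g * x * g⁻¹ := by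
  by_cases hX : X = ⊤
  · subst hX
    obtain ⟨y, hy, hyx⟩ := BGSigma.fusion_normalizer hG P (fun h1 =>
        Cfsg.Agent.S1410.result hG p _ (normalizer_ne_top hG (pZ_ne_bot P.isPGroup' h1)
          (ne_top_of_isPGroup hG (P.isPGroup'.to_le (pZ_le _)))))
      (Subgroup.zpowers x) g (Subgroup.zpowers_le.mpr hx) (fun u hu => by
        obtain ⟨k, rfl⟩ := hu
        rw [← conj_zpow]
        exact zpow_mem hgx k)
    exact ⟨y, ⟨trivial, hy⟩, (hyx x (Subgroup.mem_zpowers x)).symm⟩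
  · haveI := isSolvable_of_ne_top hG hX
    obtain ⟨-, h2, -⟩ := Cfsg.Agent.S1461.result p (Cfsg.Agent.S1410.result hG p X hX) (P.subtype hPX)
    obtain ⟨n, hn, c, hc, hnc⟩ := h2 {⟨x, hPX hx⟩} ⟨g, hg⟩
      (by rw [Sylow.coe_subtype, Set.singleton_subset_iff]; exact hx)
      (by rw [Sylow.coe_subtype, Set.image_singleton, Set.singleton_subset_iff]; exact hgx)
    have hn' : (n : G) ∈ Subgroup.normalizer ((P : Subgroup G) : Set G) := by
      have h3 : (n : G) ∈ (Subgroup.normalizer ((P.subtype hPX : Subgroup X) : Set X)).map X.subtype :=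
        ⟨n, hn, rfl⟩
      have h4 := Subgroup.le_normalizer_map X.subtype h3
      rwa [Sylow.coe_subtype, Subgroup.map_subgroupOf_eq_of_le hPX] at h4
    refine ⟨n, ⟨n.2, hn'⟩, ?_⟩
    have hcx : (c : G) * x = x * c :=
      (congrArg Subtype.val (Subgroup.mem_centralizer_iff.mp hc _ rfl)).symm
    have hgnc : g = (n : G) * c := (congrArg Subtype.val hnc).symm
    rw [hgnc]
    calc (n : G) * x * (n : G)⁻¹ = (n : G) * (x * c) * ((n : G) * c)⁻¹ := by group
      _ = (n : G) * (c * x) * ((n : G) * c)⁻¹ := by rw [hcx]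
      _ = _ := by group

/-- Fusion in a nilpotent Hall subgroup, inside any subgroup containing it. -/
theorem nilpotent_hall_fusion (hG : IsMinSimpleOddOrder G) :
    ∀ (n : ℕ) (H X : Subgroup G), Nat.card H = n → Group.IsNilpotent H →
      (Nat.card H).Coprime H.index → H ≤ X → ∀ x ∈ H, ∀ g ∈ X, g * x * g⁻¹ ∈ H →
      ∃ m ∈ X ⊓ Subgroup.normalizer (H : Set G), m * x * m⁻¹ = g * x * g⁻¹ := by
  intro n
  induction n using Nat.strong_induction_on with
  | _ n ih =>
  intro H X hn hnil hHall hHX x hx g hg hgx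
  by_cases hH1 : H = ⊥
  · subst hH1
    rw [Subgroup.mem_bot] at hx
    subst hx
    exact ⟨1, one_mem _, by simp⟩
  haveI := hnil
  obtain ⟨p, hp, hpH⟩ := Nat.exists_prime_and_dvd (fun h => hH1 (Subgroup.card_eq_one.mp h))
  haveI := Fact.mk hp
  obtain ⟨S⟩ := (inferInstance : Nonempty (Sylow p H))
  haveI hSn : (S : Subgroup H).Normal :=
    ((Group.isNilpotent_of_finite_tfae (G := H)).out 0 3 : Group.IsNilpotent H ↔
      ∀ (q : ℕ) (_hq : Fact q.Prime) (T : Sylow q H), (T : Subgroup H).Normal).mp hnil p ‹_› S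
  obtain ⟨B, hB⟩ := Subgroup.exists_right_complement'_of_coprime (N := (S : Subgroup H))
    S.card_coprime_index
  set P := (S : Subgroup H).map H.subtype
  set H' := B.map H.subtype
  have hPH : P ≤ H := Subgroup.map_subtype_le _
  have hH'H : H' ≤ H := Subgroup.map_subtype_le _
  have hPp : IsPGroup p P := S.isPGroup'.map _
  have hmulcard : Nat.card P * Nat.card H' = Nat.card H := by
    rw [Subgroup.card_map_of_injective H.subtype_injective,
      Subgroup.card_map_of_injective H.subtype_injective]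
    exact hB.card_mul
  have hcop : (Nat.card P).Coprime (Nat.card H') := by
    rw [Subgroup.card_map_of_injective H.subtype_injective,
      Subgroup.card_map_of_injective H.subtype_injective, ← hB.symm.index_eq_card]
    exact S.card_coprime_index
  have hcomm : ∀ a ∈ P, ∀ b ∈ H', a * b = b * a := by
    intro a ha b hb
    have h := commute_of_coprime_orderOf H ⟨a, hPH ha⟩ ⟨b, hH'H hb⟩ (by
      rw [← Subgroup.orderOf_coe, ← Subgroup.orderOf_coe]
      exact (hcop.coprime_dvd_left (Subgroup.orderOf_dvd_natCard _ ha)).coprime_dvd_right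
        (Subgroup.orderOf_dvd_natCard _ hb))
    exact congrArg Subtype.val h.eq
  have hmul : ∀ h ∈ H, ∃ a ∈ P, ∃ b ∈ H', h = a * b := fun h hh => by
    obtain ⟨⟨a, b⟩, hab⟩ := hB.2 ⟨h, hh⟩
    exact ⟨_, Subgroup.mem_map_of_mem _ a.2, _, Subgroup.mem_map_of_mem _ b.2,
      (congrArg Subtype.val hab).symm⟩
  have hindexP : ¬ p ∣ P.index := by
    intro hd
    rw [← Subgroup.relIndex_mul_index hPH] at hd
    rcases hp.dvd_mul.mp hd with hd | hd
    · rw [Subgroup.relIndex, Subgroup.subgroupOf,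
        Subgroup.comap_map_eq_self_of_injective H.subtype_injective] at hd
      exact S.not_dvd_index hd
    · exact hp.one_lt.ne' (Nat.eq_one_of_dvd_coprimes hHall hpH hd)
  set PG : Sylow p G := hPp.toSylow hindexP
  have hPG : (PG : Subgroup G) = P := IsPGroup.toSylow_coe _ _
  have hH'Hall : (Nat.card H').Coprime H'.index := by
    rw [← Subgroup.relIndex_mul_index hH'H]
    refine Nat.Coprime.mul_right ?_ (hHall.coprime_dvd_left (Subgroup.card_dvd_of_le hH'H))
    have h := Subgroup.relIndex_mul_relIndex ⊥ H' H bot_le hH'H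
    rw [Subgroup.relIndex_bot_left, Subgroup.relIndex_bot_left, ← hmulcard,
      mul_comm (Nat.card P)] at h
    rw [Nat.eq_of_mul_eq_mul_left Nat.card_pos h]
    exact hcop.symm
  have hP1 : P ≠ ⊥ := by
    rw [Ne, Subgroup.map_eq_bot_iff_of_injective _ H.subtype_injective]
    exact S.ne_bot_of_dvd_card hpH
  have hlt : Nat.card H' < n := by
    rw [← hn, ← hmulcard]
    exact lt_mul_of_one_lt_left Nat.card_pos ((Subgroup.one_lt_card_iff_ne_bot P).mpr hP1)
  have hH'nil : Group.IsNilpotent H' :=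
    (Group.isNilpotent_congr (Subgroup.subgroupOfEquivOfLe hH'H)).mp inferInstance
  obtain ⟨a, ha, b, hb, rfl⟩ := hmul x hx
  set a' := g * a * g⁻¹ with ha'def
  set b' := g * b * g⁻¹ with hb'def
  have hcop' : ∀ {a₁ : G}, a₁ ∈ P → (orderOf a₁).Coprime (Nat.card H') := fun ha₁ =>
    hcop.coprime_dvd_left (Subgroup.orderOf_dvd_natCard _ ha₁)
  have horder : ∀ z : G, orderOf (g * z * g⁻¹) = orderOf z := fun z =>
    orderOf_injective (MulAut.conj g).toMonoidHom (MulAut.conj g).injective z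
  have hab' : a' * b' ∈ H := by
    rw [show a' * b' = g * (a * b) * g⁻¹ by rw [ha'def, hb'def]; group]; exact hgx
  have hcab : Commute a' b' := ((show Commute a b from hcomm a ha b hb).map (MulAut.conj g))
  have ha' : a' ∈ P ∧ b' ∈ H' := by
    obtain ⟨a₁, ha₁, b₁, hb₁, he⟩ := hmul _ hab'
    have hcb := hcop.symm.coprime_dvd_left (Subgroup.orderOf_dvd_natCard _ hb)
    have hpow : a' ^ Nat.card H' = (a' * b') ^ Nat.card H' := by
      rw [hcab.mul_pow, show b' ^ Nat.card H' = 1 from orderOf_dvd_iff_pow_eq_one.mp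
        (horder b ▸ Subgroup.orderOf_dvd_natCard _ hb), mul_one]
    obtain ⟨j, hj⟩ := exists_pow_eq_self_of_coprime (x := a') (n := Nat.card H')
      (by rw [horder]; exact (hcop' ha).symm)
    have haH : a' ∈ H := hj ▸ pow_mem (hpow ▸ pow_mem hab' _) j
    have hbH : b' ∈ H := by simpa using mul_mem (inv_mem haH) hab'
    constructor
    · obtain ⟨a₂, ha₂, b₂, hb₂, h2⟩ := hmul _ haH
      exact mem_left_of_coprime hcomm ha₂ hb₂ h2 (by rw [horder]; exact hcop' ha)
    · obtain ⟨a₂, ha₂, b₂, hb₂, h2⟩ := hmul _ hbH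
      exact mem_left_of_coprime (fun u hu v hv => (hcomm v hv u hu).symm) hb₂ ha₂
        (h2.trans (hcomm a₂ ha₂ b₂ hb₂)) (by rw [horder]; exact hcb)
  obtain ⟨ha', hb'⟩ := ha'
  -- first move the `p`-component
  obtain ⟨n₁, hn₁, hn₁a⟩ := fusion_step hG PG X (hPG ▸ hPH.trans hHX) (hPG ▸ ha) hg (hPG ▸ ha')
  rw [hPG] at hn₁
  set Y := X ⊓ Subgroup.centralizer (P : Set G)
  haveI : Group.IsSolvable Y := isSolvable_of_ne_top hG (ne_of_lt (lt_of_le_of_lt inf_le_right
    (lt_top_iff_ne_top.mpr (centralizer_ne_top hG hP1))))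
  have hH'C : H' ≤ Subgroup.centralizer (P : Set G) := fun u hu =>
    Subgroup.mem_centralizer_iff.mpr fun v hv => hcomm v hv u hu
  have hH'Y : H' ≤ Y := le_inf (hH'H.trans hHX) hH'C
  set J := H'.map (MulAut.conj n₁).toMonoidHom
  have hJY : J ≤ Y := by
    rintro _ ⟨u, hu, rfl⟩
    refine Subgroup.mem_inf.mpr ⟨mul_mem (mul_mem hn₁.1 (hH'Y hu).1) (inv_mem hn₁.1),
      Subgroup.mem_centralizer_iff.mpr fun v hv => ?_⟩
    have hv' : n₁⁻¹ * v * n₁ ∈ P := (Subgroup.mem_normalizer_iff''.mp hn₁.2 v).mp hv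
    have h := (show Commute (n₁⁻¹ * v * n₁) u from hcomm _ hv' u hu).map (MulAut.conj n₁)
    simpa [mul_assoc] using h.eq
  have hhallY : ∀ L : Subgroup G, L ≤ Y → Nat.card L = Nat.card H' →
      Cfsg.IsPiHall {q | q ∣ Nat.card H'} (L.subgroupOf Y) := fun L hLY hc => by
    have hcard : Nat.card (L.subgroupOf Y) = Nat.card H' :=
      (Nat.card_congr (Subgroup.subgroupOfEquivOfLe hLY).toEquiv).trans hc
    refine ⟨fun q _ hd => hcard ▸ hd, fun q hq hqd hd => hq.one_lt.ne' ?_⟩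
    refine Nat.eq_one_of_dvd_coprimes hH'Hall hqd (hd.trans ?_)
    have h1 : L.index = H'.index := by
      have e1 := L.card_mul_index
      rw [← H'.card_mul_index, hc] at e1
      exact Nat.eq_of_mul_eq_mul_left Nat.card_pos e1
    exact h1 ▸ Dvd.intro _ (Subgroup.relIndex_mul_index hLY)
  obtain ⟨c, hc⟩ := Hall.isPiHall_isConj
    (hhallY J hJY (Subgroup.card_map_of_injective (MulAut.conj n₁).injective))
    (hhallY H' hH'Y rfl)
  have hcH' : H'.map (MulAut.conj ((c : G) * n₁)).toMonoidHom = H' := by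
    refine Subgroup.eq_of_le_of_card_ge ?_
      (Subgroup.card_map_of_injective (MulAut.conj _).injective).ge
    rintro _ ⟨u, hu, rfl⟩
    have h : (MulAut.conj c) (⟨n₁ * u * n₁⁻¹, hJY ⟨u, hu, rfl⟩⟩ : Y) ∈ H'.subgroupOf Y := by
      rw [← hc]
      exact Subgroup.smul_mem_pointwise_smul _ _ _
        (show (⟨n₁ * u * n₁⁻¹, hJY ⟨u, hu, rfl⟩⟩ : Y) ∈ J.subgroupOf Y from ⟨u, hu, rfl⟩)
    simpa [Subgroup.mem_subgroupOf, mul_assoc] using h
  set n₂ := (c : G) * n₁
  have hn₂H' : n₂ ∈ Subgroup.normalizer (H' : Set G) :=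
    Subgroup.mem_normalizer_iff_map_conj_eq.mpr hcH'
  have hn₂P : n₂ ∈ Subgroup.normalizer (P : Set G) :=
    mul_mem (Subgroup.centralizer_le_normalizer _ (c : Y).2.2) hn₁.2
  have hn₂X : n₂ ∈ X := mul_mem (c : Y).2.1 hn₁.1
  have hn₂a : n₂ * a * n₂⁻¹ = a' := by
    have h := Subgroup.mem_centralizer_iff.mp (c : Y).2.2 a' ha'
    calc n₂ * a * n₂⁻¹ = (c : G) * (n₁ * a * n₁⁻¹) * (c : G)⁻¹ := by
          show (c : G) * n₁ * a * ((c : G) * n₁)⁻¹ = _
          group
      _ = (c : G) * a' * (c : G)⁻¹ := by rw [hn₁a]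
      _ = a' := by rw [← h, mul_inv_cancel_right]
  set y := n₂⁻¹ * g
  have hya : y * a = a * y := by
    calc y * a = n₂⁻¹ * (g * a * g⁻¹) * g := by simp [y]; group
      _ = n₂⁻¹ * (n₂ * a * n₂⁻¹) * g := by rw [hn₂a]
      _ = a * y := by simp [y]; group
  -- then the other component, inside the centraliser of the first
  set X' := X ⊓ Subgroup.centralizer ({a} : Set G)
  have hH'X' : H' ≤ X' := le_inf (hH'H.trans hHX) fun u hu =>
    Subgroup.mem_centralizer_singleton_iff.mpr (hcomm a ha u hu).symm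
  have hyb : y * b * y⁻¹ ∈ H' := by
    rw [show y * b * y⁻¹ = n₂⁻¹ * b' * n₂ by simp [y, b', mul_assoc]]
    exact (Subgroup.mem_normalizer_iff''.mp hn₂H' b').mp hb'
  obtain ⟨m, hm, hmb⟩ := ih _ hlt H' X' rfl hH'nil hH'Hall hH'X' b hb y
    (Subgroup.mem_inf.mpr ⟨mul_mem (inv_mem hn₂X) hg, Subgroup.mem_centralizer_singleton_iff.mpr hya⟩) hyb
  have hma : m * a = a * m := Subgroup.mem_centralizer_singleton_iff.mp hm.1.2
  -- and correct `m` inside the centraliser of `H'`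
  set Z := X ⊓ Subgroup.centralizer (H' : Set G)
  have hPZ : P ≤ Z := le_inf (hPH.trans hHX) fun u hu =>
    Subgroup.mem_centralizer_iff.mpr fun v hv => (hcomm u hu v hv).symm
  have hmPZ : ∀ u ∈ P, m * u * m⁻¹ ∈ Z := by
    intro u hu
    refine Subgroup.mem_inf.mpr ⟨mul_mem (mul_mem hm.1.1 (hPZ hu).1) (inv_mem hm.1.1),
      Subgroup.mem_centralizer_iff.mpr fun v hv => ?_⟩
    have hv' : m⁻¹ * v * m ∈ H' := (Subgroup.mem_normalizer_iff''.mp hm.2 v).mp hv
    have h := (show Commute u (m⁻¹ * v * m) from hcomm u hu _ hv').map (MulAut.conj m)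
    simpa [mul_assoc] using h.eq.symm
  set Pm := P.map (MulAut.conj m).toMonoidHom
  have hPmZ : Pm ≤ Z := by rintro _ ⟨u, hu, rfl⟩; exact hmPZ u hu
  set PmG : Sylow p G := (hPp.map (MulAut.conj m).toMonoidHom).toSylow
    (show ¬ p ∣ Pm.index by
      have e1 := Pm.card_mul_index
      rw [← P.card_mul_index,
        show Nat.card Pm = Nat.card P from Subgroup.card_map_of_injective (MulAut.conj m).injective] at e1
      rwa [Nat.eq_of_mul_eq_mul_left Nat.card_pos e1]) with hPmG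
  have hPmGc : (PmG : Subgroup G) = Pm := IsPGroup.toSylow_coe _ _
  have hPmGZ : (PmG : Subgroup G) ≤ Z := hPmGc ▸ hPmZ
  have hPGZ : (PG : Subgroup G) ≤ Z := hPG ▸ hPZ
  obtain ⟨d₀, hd₀⟩ := MulAction.exists_smul_eq Z (PmG.subtype hPmGZ) (PG.subtype hPGZ)
  have hd₀P : ∀ u ∈ P, (d₀ : G) * (m * u * m⁻¹) * (d₀ : G)⁻¹ ∈ P := by
    intro u hu
    have h : (MulAut.conj d₀) (⟨m * u * m⁻¹, hmPZ u hu⟩ : Z) ∈
        ((PG.subtype hPGZ : Sylow p Z) : Subgroup Z) := by
      rw [← hd₀]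
      refine Subgroup.smul_mem_pointwise_smul _ _ _ ?_
      rw [Sylow.coe_subtype, hPmGc]
      exact ⟨u, hu, rfl⟩
    rw [Sylow.coe_subtype, hPG] at h
    exact h
  have hz : (d₀ : G) * a * (d₀ : G)⁻¹ ∈ P := by
    have := hd₀P a ha
    rwa [hma, mul_inv_cancel_right] at this
  obtain ⟨d₁, hd₁, hd₁a⟩ := fusion_step hG PG Z hPGZ (hPG ▸ ha) d₀.2 (hPG ▸ hz)
  rw [hPG] at hd₁
  set d := d₁⁻¹ * (d₀ : G)
  have hdZ : d ∈ Z := mul_mem (inv_mem hd₁.1) d₀.2
  have hdmP : d * m ∈ Subgroup.normalizer (P : Set G) := by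
    refine Subgroup.mem_normalizer_iff_map_conj_eq.mpr (Subgroup.eq_of_le_of_card_ge ?_
      (Subgroup.card_map_of_injective (MulAut.conj _).injective).ge)
    rintro _ ⟨u, hu, rfl⟩
    have := (Subgroup.mem_normalizer_iff''.mp hd₁.2 _).mp (hd₀P u hu)
    simpa [d, mul_assoc] using this
  have hdmH' : d * m ∈ Subgroup.normalizer (H' : Set G) :=
    mul_mem (Subgroup.centralizer_le_normalizer _ hdZ.2) hm.2
  have hda : d * a * d⁻¹ = a := by
    calc d * a * d⁻¹ = d₁⁻¹ * ((d₀ : G) * a * (d₀ : G)⁻¹) * d₁ := by simp [d, mul_assoc]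
      _ = d₁⁻¹ * (d₁ * a * d₁⁻¹) * d₁ := by rw [hd₁a]
      _ = a := by group
  have hN : ∀ {k : G}, k ∈ Subgroup.normalizer (P : Set G) → k ∈ Subgroup.normalizer (H' : Set G) →
      k ∈ Subgroup.normalizer (H : Set G) := by
    intro k hkP hkH
    have hsup : P ⊔ H' = H := le_antisymm (sup_le hPH hH'H) fun h hh => by
      obtain ⟨u, hu, v, hv, rfl⟩ := hmul h hh
      exact mul_mem (Subgroup.mem_sup_left hu) (Subgroup.mem_sup_right hv)
    rw [Subgroup.mem_normalizer_iff_map_conj_eq] at hkP hkH ⊢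
    rw [← hsup, Subgroup.map_sup, hkP, hkH]
  refine ⟨n₂ * (d * m), ⟨mul_mem hn₂X (mul_mem hdZ.1 hm.1.1),
    hN (mul_mem hn₂P hdmP) (mul_mem hn₂H' hdmH')⟩, ?_⟩
  have hdy : d * (y * b * y⁻¹) * d⁻¹ = y * b * y⁻¹ := by
    rw [← Subgroup.mem_centralizer_iff.mp hdZ.2 _ hyb, mul_inv_cancel_right]
  calc n₂ * (d * m) * (a * b) * (n₂ * (d * m))⁻¹
      = n₂ * ((d * (m * a * m⁻¹) * d⁻¹) * (d * (m * b * m⁻¹) * d⁻¹)) * n₂⁻¹ := by group
    _ = n₂ * (a * (y * b * y⁻¹)) * n₂⁻¹ := by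
        rw [hma, mul_inv_cancel_right, hda, hmb, hdy]
    _ = (n₂ * a * n₂⁻¹) * (g * b * g⁻¹) := by simp [y, mul_assoc]
    _ = g * (a * b) * g⁻¹ := by rw [hn₂a, ha'def]; group

end CfsgLib.BGAppendix
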