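import Mathlib

/-!
Finite groups of odd order in which commuting is transitive on non-identity elements and whose
`p`-singular part looks like that of a two-dimensional linear group: the elements of exponent `p`
commute with one another (they form the one Sylow `p`-subgroup).
-/

set_option autoImplicit false
open scoped commutatorElement

namespace CfsgLib.BGAppendix

variable {G : Type*} [Group G]

/-- The non-identity elements of the conjugates of a trivial-intersection subgroup. -/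
def conjCover (C : Subgroup G) : Set G := {y | y ≠ 1 ∧ ∃ g : G, g⁻¹ * y * g ∈ C}

theorem eq_one_of_inv_mul_mul_eq_one {a u : G} (h : a⁻¹ * u * a = 1) : u = 1 := by
  have h' : u = a * (a⁻¹ * u * a) * a⁻¹ := by group
  rw [h', h]; group

theorem inv_mul_mul_pow (a u : G) (n : ℕ) : (a⁻¹ * u * a) ^ n = a⁻¹ * u ^ n * a := by
  simpa using conj_pow (i := n) (a := a⁻¹) (b := u)

/-- The conjugates of a trivial-intersection subgroup `C` hold
`|G : N(C)| * (|C| - 1)` non-identity elements. -/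
theorem card_conjCover_mul [Finite G] (C : Subgroup G)
    (hTI : ∀ g : G, ∀ c ∈ C, c ≠ 1 → g * c * g⁻¹ ∈ C → g ∈ Subgroup.normalizer (C : Set G)) :
    Nat.card (conjCover C) * Nat.card (Subgroup.normalizer (C : Set G))
      = Nat.card G * (Nat.card C - 1) := by
  classical
  have hk : ∀ y : conjCover C, ∃ g : G, g⁻¹ * (y : G) * g ∈ C := fun y => y.2.2
  choose k hk using hk
  let f : conjCover C × Subgroup.normalizer (C : Set G) → G × {c : C // c ≠ 1} := fun x =>
    (k x.1 * x.2, ⟨⟨(x.2 : G)⁻¹ * ((k x.1)⁻¹ * (x.1 : G) * k x.1) * x.2,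
      (Subgroup.mem_normalizer_iff''.1 x.2.2 _).1 (hk x.1)⟩, fun h => x.1.2.1 (by
        have h' := congrArg Subtype.val h
        simp only [OneMemClass.coe_one] at h'
        have : (k x.1 * x.2)⁻¹ * (x.1 : G) * (k x.1 * x.2) = 1 := by rw [← h']; group
        exact eq_one_of_inv_mul_mul_eq_one this)⟩)
  have hinj : Function.Injective f := by
    rintro ⟨y, n⟩ ⟨y', n'⟩ h
    have h1 : k y * (n : G) = k y' * n' := congrArg Prod.fst h
    have h2 : (n : G)⁻¹ * ((k y)⁻¹ * (y : G) * k y) * n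
        = (n' : G)⁻¹ * ((k y')⁻¹ * (y' : G) * k y') * n' :=
      congrArg (fun z => ((z.2 : C) : G)) h
    obtain rfl : y = y' := by
      refine Subtype.ext ?_
      calc (y : G) = (k y * n) * ((n : G)⁻¹ * ((k y)⁻¹ * (y : G) * k y) * n) * (k y * n)⁻¹ := by
            group
        _ = (k y' * n') * ((n' : G)⁻¹ * ((k y')⁻¹ * (y' : G) * k y') * n') * (k y' * n')⁻¹ := by
            rw [h1, h2]
        _ = y' := by group
    exact Prod.ext rfl (Subtype.ext (mul_left_cancel h1))
  have hsur : Function.Surjective f := by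
    rintro ⟨a, ⟨⟨c, hc⟩, hc1⟩⟩
    have hc1' : c ≠ 1 := fun h => hc1 (Subtype.ext h)
    have hy : a * c * a⁻¹ ∈ conjCover C :=
      ⟨fun h => hc1' (conj_eq_one_iff.1 h), a, by
        rw [show a⁻¹ * (a * c * a⁻¹) * a = c by group]; exact hc⟩
    set y : conjCover C := ⟨a * c * a⁻¹, hy⟩
    have hn : (k y)⁻¹ * a ∈ Subgroup.normalizer (C : Set G) := by
      refine hTI _ c hc hc1' ?_
      rw [show (k y)⁻¹ * a * c * ((k y)⁻¹ * a)⁻¹ = (k y)⁻¹ * (a * c * a⁻¹) * k y by group]
      exact hk y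
    refine ⟨(y, ⟨_, hn⟩), Prod.ext ?_ (Subtype.ext (Subtype.ext ?_))⟩
    · show k y * ((k y)⁻¹ * a) = a
      group
    · show ((k y)⁻¹ * a)⁻¹ * ((k y)⁻¹ * (a * c * a⁻¹) * k y) * ((k y)⁻¹ * a) = c
      group
  rw [← Nat.card_prod, Nat.card_congr (Equiv.ofBijective f ⟨hinj, hsur⟩), Nat.card_prod]
  congr 1
  have h := Nat.card_congr (Equiv.sumCompl fun c : C => c = 1)
  rw [Nat.card_sum, Nat.card_unique] at h
  show Nat.card {c : C // ¬ c = 1} = _
  omega

/-- In a group of odd order a non-identity subgroup has at least three elements. -/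
theorem three_le_card_of_odd [Finite G] (hodd : Odd (Nat.card G)) {H : Subgroup G} {x : G}
    (hx : x ∈ H) (hx1 : x ≠ 1) : 3 ≤ Nat.card H := by
  obtain ⟨k, hk⟩ : Odd (Nat.card H) := hodd.of_dvd_nat (Subgroup.card_subgroup_dvd_card H)
  have : 1 < Nat.card H := (Subgroup.one_lt_card_iff_ne_bot _).2
    fun h => hx1 (Subgroup.mem_bot.1 (h ▸ hx))
  omega

variable [Finite G] (hodd : Odd (Nat.card G))
  (hCA : ∀ a b c : G, b ≠ 1 → Commute a b → Commute b c → Commute a c)
  {p : ℕ} [hp : Fact p.Prime]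
  (hU : ∀ x y : G, x ≠ 1 → x ^ p = 1 → Commute x y → y ^ p = 1)
  (hfix : ∀ x g : G, x ^ p ≠ 1 → Commute x (g * x * g⁻¹) → Commute g x)
  (hcomm : ∀ x n g : G, x ≠ 1 → x ^ p = 1 → Commute x (n * x * n⁻¹) →
    Commute x (g * x * g⁻¹) → ⁅n, g⁆ ^ p = 1)

include hodd hCA hU hfix hcomm in
/-- The elements of exponent `p` commute with one another. -/
theorem commute_of_pow_eq_one {x y : G} (hx : x ^ p = 1) (hy : y ^ p = 1) : Commute x y := by
  classical
  by_cases hx1 : x = 1
  · subst hx1; exact Commute.one_left y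
  set C : G → Subgroup G := fun a => Subgroup.centralizer {a} with hC
  have memC : ∀ {a b : G}, b ∈ C a ↔ Commute a b := fun {a b} =>
    Subgroup.mem_centralizer_singleton_iff.trans ⟨fun h => h.symm, fun h => h.symm⟩
  have hTI : ∀ a : G, a ≠ 1 → ∀ g : G, ∀ c ∈ C a, c ≠ 1 → g * c * g⁻¹ ∈ C a →
      g ∈ Subgroup.normalizer ((C a : Subgroup G) : Set G) := by
    intro a ha g c hc hc1 hgc
    rw [Subgroup.mem_normalizer_iff]
    intro h
    have e : ∀ d : G, d ∈ C a → d ≠ 1 → ∀ u : G, (u ∈ C a ↔ Commute d u) := fun d hd hd1 u =>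
      ⟨fun hu => hCA d a u ha (memC.1 hd).symm (memC.1 hu),
        fun hu => memC.2 (hCA a d u hd1 (memC.1 hd) hu)⟩
    rw [e c hc hc1, e _ hgc (fun h => hc1 (conj_eq_one_iff.1 h))]
    constructor
    · intro hh
      exact hh.map (MulAut.conj g)
    · intro hh
      simpa [mul_assoc] using hh.map (MulAut.conj g⁻¹)
  -- the Sylow subgroup
  obtain ⟨S, hxS⟩ : ∃ S : Sylow p G, Subgroup.zpowers x ≤ S := by
    refine IsPGroup.exists_le_sylow (IsPGroup.of_card (n := 1) ?_)
    rw [Nat.card_zpowers, pow_one, orderOf_eq_prime hx hx1]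
  set P : Subgroup G := (S : Subgroup G) with hP
  have hxP : x ∈ P := hxS (Subgroup.mem_zpowers x)
  have hPexp : ∀ a ∈ P, a ^ p = 1 := by
    haveI : Nontrivial P := ⟨⟨⟨x, hxP⟩, 1, fun h => hx1 (congrArg Subtype.val h)⟩⟩
    haveI := S.isPGroup'.center_nontrivial
    obtain ⟨z, hz1⟩ := exists_ne (1 : Subgroup.center P)
    have hz1' : ((z : P) : G) ≠ 1 := fun h => hz1 (Subtype.ext (Subtype.ext h))
    have hzc : ∀ a ∈ P, Commute ((z : P) : G) a := fun a ha =>
      (congrArg Subtype.val (Subgroup.mem_center_iff.1 z.2 ⟨a, ha⟩)).symm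
    have hzx : ((z : P) : G) ^ p = 1 := hU x _ hx1 hx (hzc x hxP).symm
    exact fun a ha => hU _ a hz1' hzx (hzc a ha)
  have hPC : P = C x := by
    have hcp : IsPGroup p (C x) := fun ⟨a, ha⟩ =>
      ⟨1, Subtype.ext (by simpa using hU x a hx1 hx (memC.1 ha))⟩
    have hab : ∀ a ∈ P, Commute x a := by
      haveI : Nontrivial P := ⟨⟨⟨x, hxP⟩, 1, fun h => hx1 (congrArg Subtype.val h)⟩⟩
      haveI := S.isPGroup'.center_nontrivial
      obtain ⟨z, hz1⟩ := exists_ne (1 : Subgroup.center P)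
      have hz1' : ((z : P) : G) ≠ 1 := fun h => hz1 (Subtype.ext (Subtype.ext h))
      have hzc : ∀ a ∈ P, Commute ((z : P) : G) a := fun a ha =>
        (congrArg Subtype.val (Subgroup.mem_center_iff.1 z.2 ⟨a, ha⟩)).symm
      exact fun a ha => hCA x _ a hz1' (hzc x hxP).symm (hzc a ha)
    exact (S.is_maximal' hcp fun a ha => memC.2 (hab a ha)).symm
  have hPab : ∀ a ∈ P, ∀ b ∈ P, Commute a b := fun a ha b hb =>
    hCA a x b hx1 (memC.1 (hPC ▸ ha)).symm (memC.1 (hPC ▸ hb))
  have hUsub : ∀ u : G, u ^ p = 1 → ∃ g : G, g⁻¹ * u * g ∈ P := by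
    intro u hu
    have hup : IsPGroup p (Subgroup.zpowers u) := by
      intro ⟨a, ha⟩
      obtain ⟨k, rfl⟩ := ha
      refine ⟨1, Subtype.ext ?_⟩
      show (u ^ k) ^ p ^ 1 = 1
      rw [pow_one, ← zpow_natCast, ← zpow_mul, mul_comm k, zpow_mul, zpow_natCast, hu, one_zpow]
    obtain ⟨T, hT⟩ := hup.exists_le_sylow
    obtain ⟨g, hg⟩ := MulAction.exists_smul_eq G S T
    refine ⟨g, ?_⟩
    have hu' : u ∈ (g • S : Sylow p G) := hg ▸ hT (Subgroup.mem_zpowers u)
    rw [← SetLike.mem_coe, Sylow.coe_smul, Set.mem_smul_set_iff_inv_smul_mem] at hu'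
    exact (by simpa [MulAut.smul_def] using hu' : g⁻¹ * u * g ∈ S)
  set N : Subgroup G := Subgroup.normalizer (P : Set G) with hN
  have hPN : P ≤ N := Subgroup.le_normalizer
  have hNP : ∀ u ∈ N, u ^ p = 1 → u ∈ P := by
    intro u hu hup
    have hsup : IsPGroup p ↥(Subgroup.zpowers u ⊔ P) := by
      refine IsPGroup.to_sup_of_normal_right' ?_ S.isPGroup' ((Subgroup.zpowers_le).2 hu)
      intro ⟨a, ha⟩
      obtain ⟨k, rfl⟩ := ha
      refine ⟨1, Subtype.ext ?_⟩
      show (u ^ k) ^ p ^ 1 = 1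
      rw [pow_one, ← zpow_natCast, ← zpow_mul, mul_comm k, zpow_mul, zpow_natCast, hup, one_zpow]
    show u ∈ (S : Subgroup G)
    rw [← S.is_maximal' hsup le_sup_right]
    exact Subgroup.mem_sup_left (Subgroup.mem_zpowers u)
  -- the cover by the conjugates of `P`
  have hcardP := card_conjCover_mul (C x) (hTI x hx1)
  rw [← hPC, ← hN] at hcardP
  -- the cover by the conjugates of a centraliser of an element not of exponent `p`
  have hss : ∀ g : G, g ^ p ≠ 1 →
      Subgroup.normalizer ((C g : Subgroup G) : Set G) = C g := by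
    intro g hg
    refine le_antisymm (fun n hn => ?_) Subgroup.le_normalizer
    exact memC.2 (hfix g n hg (memC.1 ((Subgroup.mem_normalizer_iff.1 hn g).1
      (memC.2 (Commute.refl g))))).symm
  have hne1 : ∀ g : G, g ^ p ≠ 1 → g ≠ 1 := fun g hg h => hg (by rw [h, one_pow])
  have hcardss : ∀ g : G, g ^ p ≠ 1 →
      Nat.card (conjCover (C g)) * Nat.card (C g) = Nat.card G * (Nat.card (C g) - 1) := by
    intro g hg
    have := card_conjCover_mul (C g) (hTI g (hne1 g hg))
    rwa [hss g hg] at this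
  have hdisjP : ∀ g : G, g ^ p ≠ 1 → Disjoint (conjCover P) (conjCover (C g)) := by
    intro g hg
    rw [Set.disjoint_left]
    rintro u ⟨hu1, a, ha⟩ ⟨-, b, hb⟩
    refine hg (hU (b⁻¹ * u * b) g (fun h => hu1 ?_) ?_ (memC.1 hb).symm)
    · exact eq_one_of_inv_mul_mul_eq_one h
    · have h1 : u ^ p = 1 := by
        have := hPexp _ ha
        rw [inv_mul_mul_pow] at this
        exact eq_one_of_inv_mul_mul_eq_one this
      rw [inv_mul_mul_pow, h1, mul_one, inv_mul_cancel]
  have hKsize : ∀ K : Set G, K ⊆ {u | u ≠ 1} → Nat.card K + 1 ≤ Nat.card G := by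
    intro K hK
    have : (1 : G) ∉ K := fun h => hK h rfl
    rw [Nat.card_coe_set_eq, ← Set.ncard_insert_of_notMem this, ← Set.ncard_univ]
    exact Set.ncard_le_ncard (Set.subset_univ _)
  have hsub : ∀ D : Subgroup G, conjCover D ⊆ {u | u ≠ 1} := fun D u hu => hu.1
  have hP3 := three_le_card_of_odd hodd hxP hx1
  suffices hNtop : N = ⊤ by
    have hall : ∀ u : G, u ^ p = 1 → u ∈ P := fun u hu => hNP u (hNtop ▸ Subgroup.mem_top u) hu
    exact hPab x hxP y (hall y hy)
  by_contra hNne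
  have hindex : Nat.card G = N.index * Nat.card N := (Subgroup.index_mul_card N).symm
  have hidx : 2 ≤ N.index := by
    have h0 : N.index ≠ 0 := Subgroup.index_ne_zero_of_finite
    have h1 : N.index ≠ 1 := fun h => hNne (Subgroup.index_eq_one.1 h)
    omega
  by_cases hNP' : N ≤ P
  · have hNeq : N = P := le_antisymm hNP' hPN
    rw [hNeq] at hcardP hindex
    by_cases hex : ∃ g : G, g ^ p ≠ 1
    · obtain ⟨g, hg⟩ := hex
      have hu := hKsize _ (Set.union_subset (hsub P) (hsub (C g)))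
      rw [Nat.card_coe_set_eq, Set.ncard_union_eq (hdisjP g hg), ← Nat.card_coe_set_eq,
        ← Nat.card_coe_set_eq] at hu
      have hA3 := three_le_card_of_odd hodd (memC.2 (Commute.refl g)) (hne1 g hg)
      have e1 := hcardss g hg
      zify [show 1 ≤ Nat.card P by omega, show 1 ≤ Nat.card (C g) by omega] at hcardP e1 hu hA3 hP3
      nlinarith [mul_nonneg (sub_nonneg.2 hP3) (sub_nonneg.2 hA3)]
    · push Not at hex
      exact hNne ((eq_top_iff).2 fun u _ => hNeq ▸ (by
        have hG : IsPGroup p (⊤ : Subgroup G) := fun a => ⟨1, Subtype.ext (by simpa using hex a)⟩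
        show u ∈ (S : Subgroup G)
        rw [← S.is_maximal' hG le_top]; trivial))
  obtain ⟨g, hgN, hgP⟩ := SetLike.not_le_iff_exists.1 hNP'
  have hg : g ^ p ≠ 1 := fun h => hgP (hNP g hgN h)
  have hcommN : ∀ n ∈ N, ∀ m ∈ N, ⁅n, m⁆ ∈ P := by
    intro n hn m hm
    refine hNP _ ?_ (hcomm x n m hx1 hx ?_ ?_)
    · rw [commutatorElement_def]
      exact mul_mem (mul_mem (mul_mem hn hm) (inv_mem hn)) (inv_mem hm)
    · exact hPab x hxP _ ((Subgroup.mem_normalizer_iff.1 hn x).1 hxP)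
    · exact hPab x hxP _ ((Subgroup.mem_normalizer_iff.1 hm x).1 hxP)
  -- `N` is the product of `P` and the centraliser of `g` in `N`
  have hfree : ∀ a ∈ P, Commute a g → a = 1 := by
    intro a ha hag
    by_contra ha1
    exact hg (hU a g ha1 (hPexp a ha) hag)
  let φ : P → P := fun a => ⟨⁅(a : G), g⁆, hcommN _ (hPN a.2) _ hgN⟩
  have hφ : Function.Bijective φ := by
    refine Finite.injective_iff_bijective.1 fun a b h => ?_
    have h' : (a : G) * g * (a : G)⁻¹ = b * g * (b : G)⁻¹ := by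
      have := congrArg (fun z : P => (z : G) * g) h
      simpa [φ, commutatorElement_def] using this
    have : (b : G)⁻¹ * a = 1 := hfree _ (mul_mem (inv_mem b.2) a.2) (by
      show (b : G)⁻¹ * a * g = g * ((b : G)⁻¹ * a)
      calc (b : G)⁻¹ * a * g = (b : G)⁻¹ * ((a : G) * g * (a : G)⁻¹) * a := by group
        _ = g * ((b : G)⁻¹ * a) := by rw [h']; group)
    exact Subtype.ext (inv_mul_eq_one.1 this).symm
  have hdecomp : ∀ n ∈ N, ∃ a ∈ P, a⁻¹ * n ∈ N ⊓ C g := by
    intro n hn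
    obtain ⟨a, ha⟩ := hφ.2 ⟨_, hcommN n hn g hgN⟩
    refine ⟨a, a.2, Subgroup.mem_inf.2 ⟨mul_mem (inv_mem (hPN a.2)) hn, memC.2 ?_⟩⟩
    have h' : (a : G) * g * (a : G)⁻¹ = n * g * n⁻¹ := by
      have := congrArg (fun z : P => (z : G) * g) ha
      simpa [φ, commutatorElement_def] using this
    show g * ((a : G)⁻¹ * n) = (a : G)⁻¹ * n * g
    calc g * ((a : G)⁻¹ * n) = (a : G)⁻¹ * ((a : G) * g * (a : G)⁻¹) * n := by group
      _ = (a : G)⁻¹ * n * g := by rw [h']; group
  have hcardN : Nat.card N = Nat.card P * Nat.card ↥(N ⊓ C g) := by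
    let ψ : P × ↥(N ⊓ C g) → N := fun z => ⟨(z.1 : G) * z.2, mul_mem (hPN z.1.2) z.2.2.1⟩
    have hψ : Function.Bijective ψ := by
      constructor
      · rintro ⟨a, b⟩ ⟨a', b'⟩ h
        have h' : (a : G) * b = a' * b' := congrArg Subtype.val h
        have hm : (a' : G)⁻¹ * a = b' * (b : G)⁻¹ := by
          rw [eq_mul_inv_iff_mul_eq, mul_assoc, h', inv_mul_cancel_left]
        have : (a' : G)⁻¹ * a = 1 := hfree _ (mul_mem (inv_mem a'.2) a.2) (by
          rw [hm]
          exact (memC.1 (mul_mem b'.2.2 (inv_mem b.2.2))).symm)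
        have haa : (a : G) = a' := (inv_mul_eq_one.1 this).symm
        rw [haa] at h'
        exact Prod.ext (Subtype.ext haa) (Subtype.ext (mul_left_cancel h'))
      · rintro ⟨n, hn⟩
        obtain ⟨a, ha, hb⟩ := hdecomp n hn
        exact ⟨(⟨a, ha⟩, ⟨_, hb⟩), Subtype.ext (mul_inv_cancel_left a n)⟩
    rw [← Nat.card_congr (Equiv.ofBijective ψ hψ), Nat.card_prod]
  set t := Nat.card ↥(N ⊓ C g) with ht
  obtain ⟨m, hm⟩ : t ∣ Nat.card (C g) := Subgroup.card_dvd_of_le inf_le_right
  have hmodd : Odd m :=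
    (hodd.of_dvd_nat (Subgroup.card_subgroup_dvd_card (C g))).of_dvd_nat ⟨t, by rw [hm, mul_comm]⟩
  have ht3 : 3 ≤ t := three_le_card_of_odd hodd (Subgroup.mem_inf.2 ⟨hgN, memC.2 (Commute.refl g)⟩)
    (hne1 g hg)
  rw [hcardN] at hcardP hindex
  have e1 := hcardss g hg
  rw [hm] at e1
  set K := conjCover P ∪ conjCover (C g) with hK
  have hKcard : Nat.card K = Nat.card (conjCover P) + Nat.card (conjCover (C g)) := by
    rw [Nat.card_coe_set_eq, Set.ncard_union_eq (hdisjP g hg), ← Nat.card_coe_set_eq,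
      ← Nat.card_coe_set_eq]
  have hu := hKsize K (Set.union_subset (hsub P) (hsub (C g)))
  rw [hKcard] at hu
  set i := N.index
  set q := Nat.card P
  -- `|G| = i q t`
  have hA1 : Nat.card (conjCover P) = i * (q - 1) := by
    refine Nat.eq_of_mul_eq_mul_right (show 0 < q * t by positivity) ?_
    rw [hcardP, hindex]; ring
  rw [hA1] at hu hKcard
  obtain rfl | hm3 : m = 1 ∨ 3 ≤ m := by obtain ⟨k, hk⟩ := hmodd; omega
  · rw [mul_one] at e1
    have hA2 : Nat.card (conjCover (C g)) = i * q * (t - 1) := by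
      refine Nat.eq_of_mul_eq_mul_right (show 0 < t by omega) ?_
      rw [e1, hindex]; ring
    rw [hA2] at hKcard
    -- there is an element outside `K`, whose class is too large
    obtain ⟨u, hu1, huK⟩ : ∃ u : G, u ≠ 1 ∧ u ∉ K := by
      by_contra hall
      push Not at hall
      have hle : (Set.univ : Set G) ⊆ insert 1 K := fun u _ =>
        (em (u = 1)).elim (fun h => h ▸ Set.mem_insert _ _) fun h => Set.mem_insert_of_mem _ (hall u h)
      have h := Set.ncard_le_ncard hle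
      rw [Set.ncard_univ] at h
      have := h.trans (Set.ncard_insert_le 1 K)
      rw [← Nat.card_coe_set_eq, hKcard, hindex] at this
      zify [show 1 ≤ t by omega, show 1 ≤ q by omega] at this hidx
      nlinarith
    have hup : u ^ p ≠ 1 := fun h => huK (Or.inl ⟨hu1, hUsub u h⟩)
    have hdisj : Disjoint K (conjCover (C u)) := by
      rw [Set.disjoint_left]
      rintro w hw ⟨hw1, b, hb⟩
      rcases hw with ⟨-, a, ha⟩ | ⟨-, a, ha⟩
      · exact Set.disjoint_left.1 (hdisjP u hup) ⟨hw1, a, ha⟩ ⟨hw1, b, hb⟩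
      · refine huK (Or.inr ⟨hu1, b⁻¹ * a, memC.2 ?_⟩)
        have h1 : Commute u (b⁻¹ * w * b) := memC.1 hb
        have h2 : Commute g (a⁻¹ * w * a) := memC.1 ha
        have h3 : Commute (a⁻¹ * w * a) ((b⁻¹ * a)⁻¹ * u * (b⁻¹ * a)) := by
          simpa [mul_assoc] using h1.symm.map (MulAut.conj (a⁻¹ * b))
        refine hCA g _ _ (fun h => hw1 ?_) h2 h3
        exact eq_one_of_inv_mul_mul_eq_one h
    have hu2 := hKsize (K ∪ conjCover (C u))
      (Set.union_subset (Set.union_subset (hsub P) (hsub (C g))) (hsub (C u)))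
    rw [Nat.card_coe_set_eq, Set.ncard_union_eq hdisj, ← Nat.card_coe_set_eq,
      ← Nat.card_coe_set_eq, hKcard] at hu2
    have e3 := hcardss u hup
    have hB3 := three_le_card_of_odd hodd (memC.2 (Commute.refl u)) hu1
    rw [hindex] at hu2 e3
    zify [show 1 ≤ t by omega, show 1 ≤ q by omega, show 1 ≤ Nat.card (C u) by omega]
      at hu2 e3 hidx hP3 ht3 hB3
    nlinarith [mul_le_mul_of_nonneg_left (hP3) (by positivity : (0:ℤ) ≤ (i:ℤ) * t),
      mul_le_mul_of_nonneg_left ht3 (by positivity : (0:ℤ) ≤ (i:ℤ))]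
  · rw [hindex] at hu e1
    have ht0 : 0 < t := by omega
    have e1' : Nat.card (conjCover (C g)) * m = i * q * (t * m - 1) := by
      refine Nat.eq_of_mul_eq_mul_right ht0 ?_
      calc Nat.card (conjCover (C g)) * m * t = Nat.card (conjCover (C g)) * (t * m) := by ring
        _ = i * (q * t) * (t * m - 1) := e1
        _ = i * q * (t * m - 1) * t := by ring
    have htm : 1 ≤ t * m := Nat.one_le_iff_ne_zero.2 (by positivity)
    zify [htm, show 1 ≤ q by omega] at hu e1' hP3 hidx ht3 hm3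
    nlinarith [mul_le_mul_of_nonneg_left hP3 (by positivity : (0:ℤ) ≤ (i:ℤ)),
      mul_le_mul_of_nonneg_left hm3 (by positivity : (0:ℤ) ≤ (i:ℤ) * q)]

end CfsgLib.BGAppendix
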