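import Cfsg.Agent.Lib.BGAppendix.TransitivityCriteria
import Cfsg.Agent.Lib.BGAppendix.TransitivityRank

/-!
The Thompson transitivity theorem for a minimal simple group of odd order.
-/

set_option autoImplicit false

namespace CfsgLib.BGAppendix

open Cfsg

variable {G : Type*} [Group G] [Finite G] (hG : IsMinSimpleOddOrder G) {p : ℕ} [hp : Fact p.Prime]

include hG in
/-- Thompson transitivity: for `A` self-centralizing normal of rank at least 3 in a Sylow
`p`-subgroup and a prime `q ≠ p`, `O_{p'}(C_G(A))` permutes the maximal `A`-invariant `q`-subgroups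
transitively. -/
theorem thompson_transitivity {P : Sylow p G} {A : Subgroup G} (hscn : IsSCN (P : Subgroup G) A)
    (hr : ¬ PRankLE p 2 A) {q : ℕ} (hq : q.Prime) (hqp : q ≠ p) :
    ∀ Q₁ ∈ maxInvSubgroups ⊤ A {q}, ∀ Q₂ ∈ maxInvSubgroups ⊤ A {q},
      ∃ k ∈ piCoreOf (primesNotDvd p) (Subgroup.centralizer (A : Set G)),
        Q₂ = Q₁.map (MulAut.conj k).toMonoidHom := by
  have := Fact.mk hq
  have hA : IsPGroup p A := P.2.to_le hscn.1
  have hAC : A ≤ Subgroup.centralizer (A : Set G) := le_of_eq_of_le hscn.2.2.symm inf_le_right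
  have hAc : IsMulCommutative A := IsMulCommutative.of_setLike_mul_comm fun x hx y hy =>
    Subgroup.mem_centralizer_iff.mp (hAC hy) x hx
  have hr1 : ¬ PRankLE p 1 A := fun h => hr fun E hE hE' => (h E hE hE').trans
    (Nat.pow_le_pow_right hp.out.pos (by norm_num))
  have hTH := transitivityHypothesis_of_scn hG hA hAc hscn hr1
  rw [← primesNotDvd_of_isPGroup hA hTH.1]
  have hqA : ¬ q ∣ Nat.card A := fun h => hqp (by
    obtain ⟨n, hn⟩ := IsPGroup.iff_card.mp hA
    exact (Nat.prime_dvd_prime_iff_eq hq hp.out).mp (hq.dvd_of_dvd_pow (hn ▸ h)))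
  refine transitive_of_rank_three hG hTH hqA ?_
  rw [inf_eq_left.mpr hAC]
  exact fun h => hr (h p hp.out)

end CfsgLib.BGAppendix
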